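import Cfsg.Agent.H880.TI
import Cfsg.Agent.S0215
import Cfsg.Agent.S0058
import Cfsg.Agent.Lib.Cores
import Cfsg.Agent.Lib.KleinGen
import Cfsg.Agent.Lib.SylowNormalInf

/-!
# Elements fixing exactly one point

`H` a subgroup of a finite group `M`; `Gd H s`: the element `s` of `H` fixes exactly one point of `M ⧸ H`
(`g s g⁻¹ ∈ H` implies `g ∈ H`). Criteria for a subgroup `K` to be contained in `H`:

* `pgroup_le`: `K` a `p`-group containing a good `p`-element;
* `le_of_cop`: `K` normalised by a noncyclic abelian `p`-group all of whose nonidentity elements are good,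
  and `p ∤ |K ∩ H|` (generation by centralisers in coprime action);
* `le_of_isolated`: `K` normalised by a four-group of good involutions `⟨s, s'⟩` and `K ∩ H` centralises `s`
  (Glauberman's Z*-theorem);
* `top_of_pair`: `H = M` if `H` contains two nonconjugate good involutions `s`, `t` such that the centralisers
  of the involutions `t sʰ` and `t tʰ` (`h ∈ H`) are contained in `H`.
-/

set_option autoImplicit false

namespace Cfsg.Agent.H882.Good

open Subgroup

variable {M : Type*} [Group M] {H : Subgroup M}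

/-- `s ∈ H` fixes exactly one point of `M ⧸ H`. -/
def Gd (H : Subgroup M) (s : M) : Prop := s ∈ H ∧ ∀ g : M, g * s * g⁻¹ ∈ H → g ∈ H

theorem Gd.mem {s : M} (h : Gd H s) : s ∈ H := h.1

theorem Gd.mem_of_conj {s g : M} (h : Gd H s) (hg : g * s * g⁻¹ ∈ H) : g ∈ H := h.2 g hg

theorem Gd.mem_of_comm {s g : M} (h : Gd H s) (hg : g * s = s * g) : g ∈ H := by
  refine h.2 g ?_
  rw [hg, mul_inv_cancel_right]
  exact h.1

theorem Gd.mem_of_comm' {s g : M} (h : Gd H s) (hg : s * g = g * s) : g ∈ H := h.mem_of_comm hg.symm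

theorem Gd.conj {s h : M} (hs : Gd H s) (hh : h ∈ H) : Gd H (h * s * h⁻¹) := by
  refine ⟨H.mul_mem (H.mul_mem hh hs.1) (H.inv_mem hh), fun g hg => ?_⟩
  have h1 : (g * h) * s * (g * h)⁻¹ ∈ H := by
    have e : (g * h) * s * (g * h)⁻¹ = g * (h * s * h⁻¹) * g⁻¹ := by group
    rwa [e]
  have h2 := H.mul_mem (hs.2 _ h1) (H.inv_mem hh)
  rwa [mul_inv_cancel_right] at h2

/-- **Criterion for being good**: `C(s) ≤ H`, and every conjugate of `s` in `H` commutes with some good element. -/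
theorem Gd.of_cent {s : M} (hs : s ∈ H) (hc : ∀ c : M, c * s = s * c → c ∈ H)
    (ht : ∀ g : M, g * s * g⁻¹ ∈ H → ∃ d : M, Gd H d ∧ d * (g * s * g⁻¹) = (g * s * g⁻¹) * d) : Gd H s := by
  refine ⟨hs, fun g hg => ?_⟩
  obtain ⟨d, hd, hds⟩ := ht g hg
  have h1 : g⁻¹ * d * g⁻¹⁻¹ ∈ H := by
    refine hc _ ?_
    have e : g⁻¹ * d * g⁻¹⁻¹ * s = g⁻¹ * (d * (g * s * g⁻¹)) * g := by group
    rw [e, hds]
    group
  have h2 := hd.2 _ h1
  have h3 := H.inv_mem h2
  rwa [inv_inv] at h3

section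

variable [Finite M]

theorem pgroup_le {p : ℕ} [hp : Fact p.Prime] {s : M} (hs : Gd H s) (hk : ∃ k : ℕ, s ^ p ^ k = 1)
    (S : Subgroup M) (hS : IsPGroup p S) (hsS : s ∈ S) : S ≤ H := by
  intro x hx
  have h := Cfsg.Agent.H880.pgroup_fixes (p := p) H {s}
    (by rintro y hy; rw [Set.mem_singleton_iff] at hy; subst hy; exact ⟨hs.1, hk⟩)
    (by rintro y hy g hg; rw [Set.mem_singleton_iff] at hy; subst hy; exact hs.2 g hg)
    (Set.mem_singleton s) 1 S hS (by simpa using hsS) x hx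
  have h2 : ((x * 1 : M) : M ⧸ H) = ((1 : M) : M ⧸ H) := h
  rw [eq_comm, QuotientGroup.eq] at h2
  simpa using h2

theorem le_of_cop {p : ℕ} [hp : Fact p.Prime] (E K : Subgroup M) [IsMulCommutative E] (hE : ¬ IsCyclic E)
    (hEp : IsPGroup p E) (hEG : ∀ e ∈ E, e ≠ 1 → Gd H e) (hEK : ∀ e ∈ E, ∀ k ∈ K, e * k * e⁻¹ ∈ K)
    (hKH : ¬ p ∣ Nat.card (K ⊓ H : Subgroup M)) : K ≤ H := by
  classical
  have hEK' : E ≤ normalizer (K : Set M) := by
    intro e he
    rw [mem_normalizer_iff]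
    intro k
    refine ⟨fun hk => hEK e he k hk, fun hk => ?_⟩
    have := hEK e⁻¹ (E.inv_mem he) _ hk
    have e2 : e⁻¹ * (e * k * e⁻¹) * e⁻¹⁻¹ = k := by group
    rwa [e2] at this
  -- a nonidentity element of E
  obtain ⟨e0, he0, he01⟩ : ∃ e ∈ E, e ≠ 1 := by
    by_contra hcon
    push Not at hcon
    apply hE
    have : Subsingleton E := ⟨fun a b => Subtype.ext (by rw [hcon a a.2, hcon b b.2])⟩
    exact isCyclic_of_subsingleton
  set L : Subgroup M := K ⊔ E with hL
  have hKL : K ≤ L := le_sup_left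
  have hEL : E ≤ L := le_sup_right
  have hKn : (K.subgroupOf L).Normal := by
    have : L ≤ normalizer (K : Set M) := sup_le le_normalizer hEK'
    exact normal_subgroupOf_of_le_normalizer this
  have hEp' : IsPGroup p (E.subgroupOf L) := by
    exact hEp.comap_of_injective L.subtype L.subtype_injective
  obtain ⟨P, hP⟩ := hEp'.exists_le_sylow
  have hPH : (P : Subgroup L).map L.subtype ≤ H := by
    refine pgroup_le (p := p) (hEG e0 he0 he01) ?_ _ (P.isPGroup'.map _) ?_
    · obtain ⟨k, hk⟩ := hEp ⟨e0, he0⟩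
      exact ⟨k, by simpa using congrArg Subtype.val hk⟩
    · exact ⟨⟨e0, hEL he0⟩, hP he0, rfl⟩
  have hnK : ¬ p ∣ Nat.card K := by
    intro hdvd
    have h1 := Cfsg.Agent.Lib.SylowNormalInf.not_dvd_relIndex P (K.subgroupOf L)
    have h2 := Cfsg.Agent.Lib.SylowNormalInf.card_inf_mul_relIndex (P : Subgroup L) (K.subgroupOf L)
    have h3 : Nat.card (K.subgroupOf L) = Nat.card K := Nat.card_congr (subgroupOfEquivOfLe hKL).toEquiv
    rw [h3] at h2
    rw [← h2] at hdvd
    have h4 := (hp.out.dvd_mul.1 hdvd).resolve_right h1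
    have h5 : Nat.card ((P : Subgroup L) ⊓ K.subgroupOf L : Subgroup L) =
        Nat.card (((P : Subgroup L) ⊓ K.subgroupOf L : Subgroup L).map L.subtype) :=
      (card_map_of_injective L.subtype_injective).symm
    have h6 : ((P : Subgroup L) ⊓ K.subgroupOf L : Subgroup L).map L.subtype ≤ K ⊓ H := by
      rintro _ ⟨x, ⟨hx1, hx2⟩, rfl⟩
      exact ⟨hx2, hPH ⟨x, hx1, rfl⟩⟩
    rw [h5] at h4
    exact hKH (h4.trans (card_dvd_of_le h6))
  obtain ⟨n, hn⟩ := IsPGroup.iff_card.1 hEp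
  have hcop : (Nat.card E).Coprime (Nat.card K) := by
    rw [hn]
    exact Nat.Coprime.pow_left n ((Nat.Prime.coprime_iff_not_dvd hp.out).2 hnK)
  have h := Cfsg.Agent.S0058.result E K hE hEK' hcop
  rw [← h]
  refine iSup₂_le fun a ha => ?_
  intro x hx
  exact (hEG a ha.1 ha.2).mem_of_comm' (mem_centralizer_iff.1 hx.2 a rfl)

/-- **Z*-criterion.** -/
theorem le_of_isolated (s s' : M) (hs2 : s * s = 1) (hs'2 : s' * s' = 1) (hs1 : s ≠ 1)
    (hc : s * s' = s' * s) (hs : Gd H s) (hs' : Gd H s') (hss' : Gd H (s * s'))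
    (K : Subgroup M) (hsK : ∀ k ∈ K, s * k * s⁻¹ ∈ K) (hs'K : ∀ k ∈ K, s' * k * s'⁻¹ ∈ K)
    (hcent : ∀ x ∈ K, x ∈ H → x * s = s * x) : K ≤ H := by
  classical
  have hp : Fact (Nat.Prime 2) := ⟨Nat.prime_two⟩
  have hsi : s⁻¹ = s := inv_eq_of_mul_eq_one_left hs2
  have hs'i : s'⁻¹ = s' := inv_eq_of_mul_eq_one_left hs'2
  set L : Subgroup M := K ⊔ zpowers s with hL
  have hKL : K ≤ L := le_sup_left
  have hsL : s ∈ L := (le_sup_right : zpowers s ≤ L) (mem_zpowers s)
  -- elements of L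
  have hLmem : ∀ x ∈ L, x ∈ K ∨ x * s ∈ K := by
    intro x hx
    let L' : Subgroup M :=
      { carrier := {x | x ∈ K ∨ x * s ∈ K}
        one_mem' := Or.inl K.one_mem
        mul_mem' := by
          rintro a b ha hb
          rcases ha with ha | ha <;> rcases hb with hb | hb
          · exact Or.inl (K.mul_mem ha hb)
          · refine Or.inr ?_
            have e : a * b * s = a * (b * s) := by group
            show a * b * s ∈ K
            rw [e]; exact K.mul_mem ha hb
          · refine Or.inr ?_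
            show a * b * s ∈ K
            have e : a * b * s = (a * s) * (s * b * s⁻¹) := by
              calc a * b * s = a * (s * s) * b * s := by rw [hs2, mul_one]
                _ = (a * s) * (s * b * s) := by group
                _ = (a * s) * (s * b * s⁻¹) := by rw [hsi]
            rw [e]; exact K.mul_mem ha (hsK b hb)
          · refine Or.inl ?_
            show a * b ∈ K
            have e : a * b = (a * s) * (s * (b * s) * s⁻¹) := by
              calc a * b = a * (s * s) * b * (s * s) := by rw [hs2]; group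
                _ = (a * s) * (s * (b * s) * s) := by group
                _ = (a * s) * (s * (b * s) * s⁻¹) := by rw [hsi]
            rw [e]; exact K.mul_mem ha (hsK _ hb)
        inv_mem' := by
          rintro a ha
          rcases ha with ha | ha
          · exact Or.inl (K.inv_mem ha)
          · refine Or.inr ?_
            show a⁻¹ * s ∈ K
            have e : a⁻¹ * s = s * (a * s)⁻¹ * s⁻¹ := by
              calc a⁻¹ * s = (s * s) * a⁻¹ * s := by rw [hs2, one_mul]
                _ = s * (s * a⁻¹) * s := by group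
                _ = s * (s⁻¹ * a⁻¹) * s⁻¹ := by rw [hsi]
                _ = s * (a * s)⁻¹ * s⁻¹ := by rw [mul_inv_rev]
            rw [e]; exact hsK _ (K.inv_mem ha) }
    have hLL' : L ≤ L' := by
      refine sup_le (fun x hx => Or.inl hx) ?_
      rw [zpowers_le]
      exact Or.inr (by rw [hs2]; exact K.one_mem)
    exact hLL' hx
  -- s' normalises L
  have hs'L : ∀ x ∈ L, s' * x * s'⁻¹ ∈ L := by
    intro x hx
    rcases hLmem x hx with h | h
    · exact hKL (hs'K x h)
    · have e : s' * x * s'⁻¹ = (s' * (x * s) * s'⁻¹) * s⁻¹ := by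
        have e1 : s' * s * s'⁻¹ = s := by rw [← hc, mul_inv_cancel_right]
        calc s' * x * s'⁻¹ = s' * (x * s) * s⁻¹ * s'⁻¹ := by group
          _ = (s' * (x * s) * s'⁻¹) * (s' * s * s'⁻¹)⁻¹ := by group
          _ = _ := by rw [e1]
      rw [e]
      exact L.mul_mem (hKL (hs'K _ h)) (L.inv_mem hsL)
  -- Sylow 2-subgroup of L
  have hz : orderOf s = 2 := orderOf_eq_prime (by rw [pow_two, hs2]) hs1
  have hzL : orderOf (⟨s, hsL⟩ : L) = 2 := by rw [← hz, ← Subgroup.orderOf_coe]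
  have hpz : IsPGroup 2 (zpowers (⟨s, hsL⟩ : L)) := by
    rw [IsPGroup.iff_card]
    exact ⟨1, by rw [Nat.card_zpowers, hzL, pow_one]⟩
  obtain ⟨P, hP⟩ := hpz.exists_le_sylow
  have hsP : (⟨s, hsL⟩ : L) ∈ P := hP (mem_zpowers _)
  have hPH : (P : Subgroup L).map L.subtype ≤ H :=
    pgroup_le (p := 2) hs ⟨1, by rw [pow_one, pow_two, hs2]⟩ _ (P.isPGroup'.map _) ⟨_, hsP, rfl⟩
  obtain ⟨N, hN, hodd, hcomm⟩ := Cfsg.Agent.S0215.result P (⟨s, hsL⟩ : L) hzL hsP (by
    intro g hg
    have h1 : (g : M) * s * (g : M)⁻¹ ∈ H := hPH ⟨_, hg, rfl⟩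
    have h2 : (g : M) ∈ H := hs.2 _ h1
    apply Subtype.ext
    show (g : M) * s * (g : M)⁻¹ = s
    rcases hLmem g g.2 with h | h
    · rw [hcent _ h h2, mul_inv_cancel_right]
    · have h3 := hcent _ h (H.mul_mem h2 hs.1)
      have h4 : (g : M) * s = s * g := by
        have := mul_right_cancel (b := s) (by rw [h3]; group : (g : M) * s * s = (s * g) * s)
        exact this
      rw [h4, mul_inv_cancel_right])
  -- the odd core of L
  set O : Subgroup M := (pPrimeCore 2 L).map L.subtype with hO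
  have hNO : ∀ x : L, x ∈ N → (x : M) ∈ O := by
    intro x hx
    exact ⟨x, Cfsg.Agent.Lib.Cores.le_pPrimeCore hN (Nat.coprime_two_right.2 hodd) hx, rfl⟩
  have hOodd : Odd (Nat.card O) := by
    rw [hO, card_map_of_injective L.subtype_injective]
    have := Cfsg.Agent.Lib.Cores.pPrimeCore_coprime (G := L) 2
    rwa [Nat.coprime_two_right] at this
  have hOn : (pPrimeCore 2 L).Normal := Cfsg.Agent.Lib.Cores.pPrimeCore_normal 2
  have hOc : (pPrimeCore 2 L).Characteristic := Cfsg.Agent.Lib.Cores.pPrimeCore_characteristic 2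
  have hsO : ∀ x ∈ O, s * x * s⁻¹ ∈ O := by
    rintro _ ⟨x, hx, rfl⟩
    exact ⟨⟨s, hsL⟩ * x * ⟨s, hsL⟩⁻¹, hOn.conj_mem x hx _, rfl⟩
  have hs'O : ∀ x ∈ O, s' * x * s'⁻¹ ∈ O := by
    rintro _ ⟨x, hx, rfl⟩
    -- the automorphism of L induced by s'
    let f : L →* L :=
      { toFun := fun y => ⟨s' * y * s'⁻¹, hs'L y y.2⟩
        map_one' := Subtype.ext (by simp)
        map_mul' := fun a b => Subtype.ext (by
          show s' * ((a : M) * b) * s'⁻¹ = (s' * a * s'⁻¹) * (s' * b * s'⁻¹)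
          group) }
    have hff : ∀ y, f (f y) = y := by
      intro y
      apply Subtype.ext
      show s' * (s' * (y : M) * s'⁻¹) * s'⁻¹ = y
      calc s' * (s' * (y : M) * s'⁻¹) * s'⁻¹ = (s' * s') * y * (s' * s')⁻¹ := by group
        _ = y := by rw [hs'2]; group
    let F : L ≃* L := ⟨⟨f, f, hff, hff⟩, f.map_mul⟩
    have hfx : F x ∈ pPrimeCore 2 L := by
      have h1 := hOc.fixed F
      have h2 : x ∈ (pPrimeCore 2 L).comap F.toMonoidHom := by rw [h1]; exact hx
      exact h2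
    exact ⟨F x, hfx, rfl⟩
  have hOH : O ≤ H := by
    refine Cfsg.Agent.Lib.KleinGen.le_of_klein O H hOodd s s' hs2 hs'2 hc hsO hs'O ?_ ?_ ?_
    · intro x hx
      exact hs.mem_of_comm' (mem_centralizer_iff.1 hx.2 s rfl)
    · intro x hx
      exact hs'.mem_of_comm' (mem_centralizer_iff.1 hx.2 s' rfl)
    · intro x hx
      exact hss'.mem_of_comm' (mem_centralizer_iff.1 hx.2 _ rfl)
  intro x hx
  have h1 := hOH (hNO _ (hcomm ⟨x, hKL hx⟩))
  have h2 : s * x * s⁻¹ * x⁻¹ ∈ H := h1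
  refine hs.2 x ?_
  have h3 := H.mul_mem (H.inv_mem hs.1) h2
  have h4 : s⁻¹ * (s * x * s⁻¹ * x⁻¹) = x * s * x⁻¹ := by rw [hsi]; rw [← mul_assoc, ← mul_assoc, ← mul_assoc, hs2, one_mul]
  rwa [h4] at h3

end

section pair

variable [Finite M]

/-- **Two classes of good involutions.** -/
theorem top_of_pair (s t : M) (hs2 : s * s = 1) (ht2 : t * t = 1) (hs : Gd H s) (ht : Gd H t)
    (hnc : ∀ g : M, g * s * g⁻¹ ≠ t)
    (h1 : ∀ h ∈ H, ∀ j, j = t * (h * s * h⁻¹) → j * j = 1 → j ≠ 1 → ∀ c, c * j = j * c → c ∈ H)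
    (h2 : ∀ h ∈ H, ∀ j, j = t * (h * t * h⁻¹) → j * j = 1 → j ≠ 1 → ∀ c, c * j = j * c → c ∈ H)
    (g : M) : g ∈ H := by
  by_contra hg
  set x : M := g * s * g⁻¹ with hx
  have hx2 : x * x = 1 := by
    calc x * x = g * (s * s) * g⁻¹ := by rw [hx]; group
      _ = 1 := by rw [hs2]; group
  have hxH : x ∉ H := fun h => hg (hs.2 g h)
  set y : M := t * x with hy
  have hti : t⁻¹ = t := inv_eq_of_mul_eq_one_left ht2
  have hxi : x⁻¹ = x := inv_eq_of_mul_eq_one_left hx2
  have hty : t * y * t = y⁻¹ := by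
    rw [hy, mul_inv_rev, hxi, hti, ← mul_assoc, ht2, one_mul]
  have htyn : ∀ n : ℕ, t * y ^ n * t = (y ^ n)⁻¹ := by
    intro n
    induction n with
    | zero => simp [ht2]
    | succ n ih =>
      calc t * y ^ (n + 1) * t = (t * y ^ n * t) * (t * y * t) := by
            rw [pow_succ]
            calc t * (y ^ n * y) * t = t * y ^ n * 1 * y * t := by group
              _ = t * y ^ n * (t * t) * y * t := by rw [ht2]
              _ = _ := by group
        _ = (y ^ n)⁻¹ * y⁻¹ := by rw [ih, hty]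
        _ = (y ^ (n + 1))⁻¹ := by rw [pow_succ']; exact (_root_.mul_inv_rev y (y ^ n)).symm
  have hyn : ∀ n : ℕ, y ^ n * t = t * (y ^ n)⁻¹ := by
    intro n
    rw [← htyn n, ← mul_assoc, ← mul_assoc, ht2, one_mul]
  -- `y^n t y^{-n} = y^{2n} t`
  have hconj : ∀ n : ℕ, y ^ n * t * (y ^ n)⁻¹ = y ^ (n + n) * t := by
    intro n
    have e : t * (y ^ n)⁻¹ = y ^ n * t := (hyn n).symm
    calc y ^ n * t * (y ^ n)⁻¹ = y ^ n * (t * (y ^ n)⁻¹) := by group
      _ = y ^ n * (y ^ n * t) := by rw [e]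
      _ = y ^ (n + n) * t := by rw [pow_add]; group
  rcases Nat.even_or_odd (orderOf y) with heven | hodd
  · obtain ⟨m, hm⟩ := heven
    have hpos : 0 < orderOf y := orderOf_pos y
    set z : M := y ^ m with hz
    have hz2 : z * z = 1 := by rw [hz, ← pow_add, ← hm, pow_orderOf_eq_one]
    have hz1 : z ≠ 1 := by
      intro h
      have := orderOf_dvd_of_pow_eq_one (x := y) (n := m) (by rw [← hz, h])
      have := Nat.le_of_dvd (by omega) this
      omega
    have hzi : z⁻¹ = z := inv_eq_of_mul_eq_one_left hz2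
    have htz : z * t = t * z := by
      have := hyn m
      rw [← hz, hzi] at this
      exact this
    have hzH : z ∈ H := ht.mem_of_comm htz
    have hyz : y * z = z * y := by rw [hz]; exact (pow_succ' y m).symm.trans (pow_succ y m)
    have hxz : x * z = z * x := by
      have e : x = t * y := by rw [hy, ← mul_assoc, ht2, one_mul]
      rw [e, mul_assoc, hyz, ← mul_assoc, ← htz, mul_assoc]
    have htzH : t * z ∈ H := H.mul_mem ht.1 hzH
    have hzt : z = t * (t * z) := by rw [← mul_assoc, ht2, one_mul]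
    rcases Nat.even_or_odd m with ⟨i, hi⟩ | ⟨i, hi⟩
    · -- `t z = d t d⁻¹` with `d = y^{-i}`
      have e : t * z = (y ^ i)⁻¹ * t * (y ^ i)⁻¹⁻¹ := by
        rw [inv_inv]
        have e1 : (y ^ i)⁻¹ * t = t * y ^ i := by
          have := hyn i
          calc (y ^ i)⁻¹ * t = (y ^ i)⁻¹ * (t * ((y ^ i)⁻¹ * y ^ i)) := by group
            _ = (y ^ i)⁻¹ * (t * (y ^ i)⁻¹) * y ^ i := by group
            _ = (y ^ i)⁻¹ * (y ^ i * t) * y ^ i := by rw [this]
            _ = t * y ^ i := by group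
        rw [e1, mul_assoc, ← pow_add, ← hi, hz]
      have hd : (y ^ i)⁻¹ ∈ H := ht.2 _ (by rw [← e]; exact htzH)
      refine hxH (h2 _ hd z ?_ hz2 hz1 x hxz)
      rw [← e]
      exact hzt
    · -- `t z = d x d⁻¹`
      have e : t * z = (y ^ i)⁻¹ * x * (y ^ i)⁻¹⁻¹ := by
        rw [inv_inv]
        have e0 : (y ^ i)⁻¹ * t = t * y ^ i := by
          have := hyn i
          calc (y ^ i)⁻¹ * t = (y ^ i)⁻¹ * (t * ((y ^ i)⁻¹ * y ^ i)) := by group
            _ = (y ^ i)⁻¹ * (t * (y ^ i)⁻¹) * y ^ i := by group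
            _ = (y ^ i)⁻¹ * (y ^ i * t) * y ^ i := by rw [this]
            _ = t * y ^ i := by group
        have ex : x = t * y := by rw [hy, ← mul_assoc, ht2, one_mul]
        rw [ex, ← mul_assoc, e0, hz, hi]
        have : 2 * i + 1 = i + 1 + i := by omega
        rw [this, pow_add, pow_add, pow_one]
        group
      have e2 : t * z = ((y ^ i)⁻¹ * g) * s * ((y ^ i)⁻¹ * g)⁻¹ := by
        rw [e, hx]; group
      have hd : (y ^ i)⁻¹ * g ∈ H := hs.2 _ (by rw [← e2]; exact htzH)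
      refine hxH (h1 _ hd z ?_ hz2 hz1 x hxz)
      rw [← e2]
      exact hzt
  · obtain ⟨m, hm⟩ := hodd
    -- `y^m t y^{-m} = y^{2m} t = y⁻¹ t = x`
    have e : y ^ m * t * (y ^ m)⁻¹ = x := by
      rw [hconj]
      have e1 : y ^ (m + m) = y⁻¹ := by
        rw [eq_inv_iff_mul_eq_one, ← pow_succ]
        have : m + m + 1 = orderOf y := by omega
        rw [this, pow_orderOf_eq_one]
      rw [e1, hy, mul_inv_rev, hxi, hti, mul_assoc, ht2, mul_one]
    refine hnc ((y ^ m)⁻¹ * g) ?_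
    calc (y ^ m)⁻¹ * g * s * ((y ^ m)⁻¹ * g)⁻¹ = (y ^ m)⁻¹ * (g * s * g⁻¹) * y ^ m := by group
      _ = (y ^ m)⁻¹ * (y ^ m * t * (y ^ m)⁻¹) * y ^ m := by rw [← hx, e]
      _ = t := by group

end pair

end Cfsg.Agent.H882.Good
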